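import Cfsg.Agent.H757.OutLarge
import Cfsg.Agent.KFacts.J3
import Cfsg.Agent.KFacts.J3Sheet
import Cfsg.Agent.KFacts.J2.Facts

/-!
# S3842, S4094, S4095: the outer rows of `J₂` and `J₃` (helper757, task 2268)
-/

set_option autoImplicit false

namespace Cfsg.Agent.H757.OutJ

open Subgroup Cfsg Cfsg.Agent.H509.TwoFrame
open Cfsg.Agent.H472.ComRed (cm cm_eq cm_eq' cm_eq_one cm_mem cm_mem_left map_cm)
open Cfsg.Agent.Co2Type.Quad Cfsg.Agent.KFacts.AutLarge
open Cfsg.Agent.J2Type.Model Cfsg.Agent.J2Type.CStruct Cfsg.Agent.J3Type.OneClass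
open Cfsg.Agent.KFacts Cfsg.Agent.KFacts.J3Sheet

universe u

theorem perm_one : ∀ σ : Equiv.Perm (Fin 5), (∀ τ : Equiv.Perm (Fin 5), Equiv.Perm.sign τ = 1 → σ * τ = τ * σ) → σ = 1 := by
  intro σ h
  have h1 : ∀ σ : Equiv.Perm (Fin 5), σ * (Equiv.swap 0 1 * Equiv.swap 1 2) = (Equiv.swap 0 1 * Equiv.swap 1 2) * σ →
      σ * (Equiv.swap 2 3 * Equiv.swap 3 4) = (Equiv.swap 2 3 * Equiv.swap 3 4) * σ → σ = 1 := by decide +kernel
  exact h1 σ (h _ (by decide)) (h _ (by decide))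

section

variable {K : Type*} [Group K] {z : K} {Q : Subgroup (centralizer ({z} : Set K))}
  {v : Fin 5 → centralizer ({z} : Set K)} {ρ : centralizer ({z} : Set K) →* SP}

theorem eqz_v (M : IsModel Q (zc z) v ρ) {i j : Fin 5} (h : Eqz z (v i : K) (v j)) : i = j := by
  have h4 := eqz_rho M h
  rw [rho_v M, rho_v M] at h4
  exact aux_ind _ _ (congrArg SP.s h4)

theorem permOf_unique (M : IsModel Q (zc z) v ρ) {α : MulAut K} {σ τ : Equiv.Perm (Fin 5)} (h1 : PermOf v α σ)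
    (h2 : PermOf v α τ) : σ = τ := by
  ext i : 1
  exact eqz_v M (eqz_trans M (eqz_symm M (h1 i)) (h2 i))

end

variable {G : Type u} [Group G] [Finite G] {L : Subgroup G} {x : G}

theorem outrow_of_model (C : Ctx 2 L x) (hx : x ∉ L) (h2 : 2 ∣ orderOf x) {z : L}
    {Q : Subgroup (centralizer ({z} : Set L))} {v : Fin 5 → centralizer ({z} : Set L)}
    {ρ : centralizer ({z} : Set L) →* SP} (hc : Nat.card (centralizer ({z} : Set L)) = 1920)
    (M : IsModel Q (zc z) v ρ) {n₀ : L}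
    (hin : n₀ * z * n₀⁻¹ ∈ Q.map (centralizer ({z} : Set L)).subtype) (hnz : n₀ * z * n₀⁻¹ ≠ z)
    (hgen : closure ({c : L | c * z = z * c} ∪ {n₀}) = ⊤) (hodd : Odd (centralizer ({z} : Set L)).index) : False := by
  have hLn := C.normal
  have hQ : ∃ q ∈ Q.map (centralizer ({z} : Set L)).subtype, q ≠ 1 ∧ q ≠ z := by
    refine ⟨v 0, ⟨_, M.v_mem 0, rfl⟩, fun h => ?_, fun h => ?_⟩
    · apply v_ne_one M 0 0
      rw [zp_zero, one_mul]; exact Subtype.ext h
    · apply zv_ne_z M 0 0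
      rw [zp_zero, one_mul]; exact Subtype.ext h
  obtain ⟨y, hxy, Cy, hyz, hcm⟩ := OutLarge.exists_large C h2 (large hc M) (irr hc M) hQ hodd
  have hyL : y ∉ L := by
    intro h
    apply hx
    obtain ⟨g, hg⟩ := isConj_iff.1 hxy
    have h1 := hLn.conj_mem y h g⁻¹
    rwa [← hg, show g⁻¹ * (g * x * g⁻¹) * g⁻¹⁻¹ = x by group] at h1
  let α : MulAut L := MulAut.conjNormal y
  have hαv : ∀ s : L, ((α s : L) : G) = y * s * y⁻¹ := fun s => MulAut.conjNormal_apply y s
  have hα : α z = z := by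
    apply Subtype.ext
    rw [hαv, hyz]; group
  obtain ⟨σ, hσ⟩ := exists_perm hc M hα
  have hσ1 : σ = 1 := by
    apply perm_one
    intro τ hτ
    obtain ⟨c, hcv⟩ := QMinus.exists_c M τ hτ
    obtain ⟨q, hq, hqc⟩ := hcm c (mem_centralizer_singleton_iff.1 c.2)
    obtain ⟨q, hq, rfl⟩ := hq
    have hconj : ∀ c' : centralizer ({z} : Set L), (MulAut.conj (c' : L)) z = z := by
      intro c'
      have := mem_centralizer_singleton_iff.1 c'.2
      rw [MulAut.conj_apply, this, mul_inv_cancel_right]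
    have e1 : α * MulAut.conj (c : L) = MulAut.conj (c : L) * (α * MulAut.conj (q : L)) := by
      ext l
      show y * ((c : L) * l * (c : L)⁻¹ : L) * y⁻¹ = _
      have h3 : (((MulAut.conj (c : L) * (α * MulAut.conj (q : L))) l : L) : G) =
          ((c : L) : G) * (y * (((q : L) : G) * l * ((q : L) : G)⁻¹) * y⁻¹) * ((c : L) : G)⁻¹ := rfl
      have h4 : ((q : L) : G) = y⁻¹ * ((c : L) : G)⁻¹ * y * ((c : L) : G) := hqc
      rw [h3, h4]
      show y * (((c : L) : G) * l * ((c : L) : G)⁻¹) * y⁻¹ = _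
      group
    have p1 : PermOf v (MulAut.conj (c : L)) τ := fun i => Or.inl (by
      have h3 := congrArg Subtype.val (hcv i)
      exact h3)
    have p2 : PermOf v (MulAut.conj (q : L)) 1 := by
      intro i
      have hqQ : (q : L) ∈ Q.map (centralizer ({z} : Set L)).subtype := ⟨q, hq, rfl⟩
      have hvQ : (v i : L) ∈ Q.map (centralizer ({z} : Set L)).subtype := ⟨v i, M.v_mem i, rfl⟩
      show Eqz z ((q : L) * v i * (q : L)⁻¹) (v i)
      rcases (large hc M).comm _ hqQ _ hvQ with h3 | h3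
      · left; rw [h3]; group
      · right
        have h5 := (large hc M).comm_z _ hqQ
        have h6 : (q : L)⁻¹ * z = z * (q : L)⁻¹ := by
          rw [inv_mul_eq_iff_eq_mul, ← mul_assoc, h5, mul_assoc, mul_inv_cancel, mul_one]
        rw [h3]
        calc (v i : L) * q * z * (q : L)⁻¹ = v i * q * (z * (q : L)⁻¹) := by group
          _ = v i * z := by rw [← h6]; group
    have p3 := permOf_mul M hα hσ p1
    have p4 := permOf_mul M (hconj c) p1 (permOf_mul M hα hσ p2)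
    rw [e1] at p3
    have h5 := permOf_unique M p3 p4
    rw [mul_one] at h5
    exact h5
  obtain ⟨k, hk⟩ := inner_of_even hc M hin hnz hgen hα hσ (by rw [hσ1]; exact map_one _)
  apply hyL
  have h3 : (k : G)⁻¹ * y ∈ centralizer (L : Set G) := by
    rw [mem_centralizer_iff]
    intro l hl
    have h4 := hαv ⟨l, hl⟩
    rw [hk] at h4
    have h5 : (k : G) * l * (k : G)⁻¹ = y * l * y⁻¹ := h4
    calc l * ((k : G)⁻¹ * y) = (k : G)⁻¹ * ((k : G) * l * (k : G)⁻¹) * y := by group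
      _ = (k : G)⁻¹ * y * l := by rw [h5]; group
  rw [C.cent, mem_bot] at h3
  have h4 : y = k := by
    calc y = (k : G) * ((k : G)⁻¹ * y) := by group
      _ = k := by rw [h3, mul_one]
  rw [h4]
  exact k.2

/-- **`J₂`** -/
theorem outrow_J2 (h : Cfsg.Spor.IsoJ2 L) (C : Ctx 2 L x) (hx : x ∉ L) (h2 : 2 ∣ orderOf x) : False := by
  obtain ⟨t, u, Q, v, ρ, D⟩ := Cfsg.Agent.KFacts.J2.Facts.exists_dat_of h
  obtain ⟨n, hn1, hn2⟩ := D.exists_n
  refine outrow_of_model C hx h2 D.cardC D.M (n₀ := n) ?_ ?_ ?_ (by rw [D.index]; decide)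
  · rw [hn1]
    exact ⟨v 0, D.M.v_mem 0, rfl⟩
  · rw [hn1]
    exact D.v_ne_t 0
  · apply D.gen (n := n) _ _ (v 0) (D.M.v_mem 0) hn1
    · rw [hn1]; exact D.v_ne_t 0
    · intro c hc
      exact subset_closure (Or.inl (mem_centralizer_singleton_iff.1 hc))
    · exact subset_closure (Or.inr rfl)

/-- **`J₃`** -/
theorem outrow_J3 (h : Cfsg.Spor.IsoJ3 L) (C : Ctx 2 L x) (hx : x ∉ L) (h2 : 2 ∣ orderOf x) : False := by
  obtain ⟨-, z, Q, v, ρ, n, u, F⟩ := Cfsg.Agent.KFacts.J3.exists_facts h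
  have M := F.model
  have hvne : ∀ i, (v i : L) ≠ z := by
    intro i h
    apply zv_ne_z M 0 i
    rw [zp_zero, one_mul]
    exact Subtype.ext h
  refine outrow_of_model C hx h2 F.card_C M (n₀ := n) ?_ ?_ F.gen ?_
  · rw [F.nz]
    exact ⟨v 0, M.v_mem 0, rfl⟩
  · rw [F.nz]; exact hvne 0
  · have h1 := (centralizer ({z} : Set L)).card_mul_index
    rw [F.card_C, F.card_K] at h1
    have h3 : (centralizer ({z} : Set L)).index = 26163 := by omega
    rw [h3]
    decide

end Cfsg.Agent.H757.OutJ
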